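import Mathlib
import Cfsg.Agent.Lib.CosetCert.Chain2
import Cfsg.Agent.Lib.PrimeGraph.G24Field
import Cfsg.Agent.Lib.Classical.SympCount

/-!
# The symplectic group of degree four over the field with four elements

A permutation group on the 256 vectors, generated by the actions of symplectic matrices and of
the order of the symplectic group, is isomorphic to the symplectic group.
-/

namespace Cfsg.Agent.Lib.CosetCert.Sp4

open Equiv Matrix Cfsg.Agent.Lib.PrimeGraph.G24Field

/-- The coordinates. -/
abbrev ι := Fin 2 ⊕ Fin 2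

/-- The vectors. -/
abbrev V := ι → K4

/-- The symplectic group. -/
abbrev Sp := Matrix.symplecticGroup (Fin 2) K4

/-- An element of the field from a number. -/
def digit (n : ℕ) : K4 :=
  match n % 4 with
  | 0 => K4.o
  | 1 => K4.e
  | 2 => K4.w
  | _ => K4.v

/-- The number of an element of the field. -/
def num : K4 → ℕ
  | K4.o => 0
  | K4.e => 1
  | K4.w => 2
  | K4.v => 3

/-- The number of a coordinate. -/
def idx : ι → ℕ
  | Sum.inl i => i.val
  | Sum.inr i => 2 + i.val

/-- The vector of a number. -/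
def dec (x : ℕ) : V := fun i => digit (x >>> (2 * idx i))

/-- The number of a vector. -/
def enc (v : V) : ℕ :=
  num (v (Sum.inl 0)) + 4 * num (v (Sum.inl 1)) + 16 * num (v (Sum.inr 0)) + 64 * num (v (Sum.inr 1))

theorem enc_dec : ∀ x : Fin 256, enc (dec x.1) = x.1 := by decide +kernel

theorem dec_injective : Function.Injective (fun x : Fin 256 => dec x.1) := by
  intro x y h
  apply Fin.ext
  rw [← enc_dec x, ← enc_dec y]
  exact congrArg enc h

theorem card_V : Nat.card V = 256 := by
  rw [Nat.card_eq_fintype_card, Fintype.card_fun, K4.card_eq]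
  rfl

/-- The numbering of the vectors. -/
noncomputable def decE : Fin 256 ≃ V :=
  Equiv.ofBijective _ ((Nat.bijective_iff_injective_and_card _).2
    ⟨dec_injective, by rw [card_V, Nat.card_fin]⟩)

theorem decE_apply (x : Fin 256) : decE x = dec x.1 := rfl

theorem dec_enc (v : V) : dec (enc v) = v := by
  obtain ⟨x, rfl⟩ := decE.surjective v
  rw [decE_apply, enc_dec]

/-- The action on vectors. -/
def rho : Sp →* Perm V where
  toFun g :=
    { toFun := fun v => g.1 *ᵥ v
      invFun := fun v => (g⁻¹).1 *ᵥ v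
      left_inv := fun v => by
        change ((g⁻¹ : Sp) : Matrix ι ι K4) *ᵥ (g.1 *ᵥ v) = v
        rw [Matrix.mulVec_mulVec]
        have h : ((g⁻¹ : Sp) : Matrix ι ι K4) * g.1 = 1 := congrArg Subtype.val (inv_mul_cancel g)
        rw [h, Matrix.one_mulVec]
      right_inv := fun v => by
        change g.1 *ᵥ (((g⁻¹ : Sp) : Matrix ι ι K4) *ᵥ v) = v
        rw [Matrix.mulVec_mulVec]
        have h : g.1 * ((g⁻¹ : Sp) : Matrix ι ι K4) = 1 := congrArg Subtype.val (mul_inv_cancel g)
        rw [h, Matrix.one_mulVec] }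
  map_one' := by
    apply Equiv.ext
    intro v
    change (1 : Matrix ι ι K4) *ᵥ v = v
    rw [Matrix.one_mulVec]
  map_mul' g h := by
    apply Equiv.ext
    intro v
    change (g.1 * h.1) *ᵥ v = g.1 *ᵥ (h.1 *ᵥ v)
    rw [Matrix.mulVec_mulVec]

theorem rho_injective : Function.Injective rho := by
  rw [injective_iff_map_eq_one]
  intro g hg
  apply Subtype.ext
  change g.1 = 1
  apply Matrix.toLin'.injective
  apply LinearMap.ext
  intro v
  have h : (rho g) v = v := by rw [hg]; rfl
  rw [Matrix.toLin'_apply, Matrix.toLin'_one]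
  exact h

/-- The action on the numbers of the vectors. -/
noncomputable def psi : Sp →* Perm (Fin 256) :=
  (decE.symm.permCongrHom.toMonoidHom).comp rho

theorem psi_injective : Function.Injective psi := by
  intro g h hgh
  apply rho_injective
  exact decE.symm.permCongrHom.injective hgh

theorem card_Sp : Nat.card Sp = 979200 := by
  have h : Nat.card K4 = 4 := by
    rw [Nat.card_eq_fintype_card, K4.card_eq]
  rw [Cfsg.Agent.Lib.Classical.SympCount.card_symplecticGroup h 2]
  decide

/-- The isomorphism from the tables of the letters. -/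
theorem exists_equiv (L : Letters 256) (M : ℕ → Matrix ι ι K4)
    (hM : ∀ c, c < L.k → M c ∈ Sp)
    (hact : ∀ c, c < L.k → ∀ x : Fin 256, enc (M c *ᵥ dec x.1) = L.F c x.1)
    (hcard : Nat.card L.G = 979200) : Nonempty (L.G ≃* Sp) := by
  have hle : L.G ≤ psi.range := by
    apply L.G_le_of_val
    intro c hc
    refine ⟨⟨M c, hM c hc⟩, ?_⟩
    ext x
    have h1 : dec (L.F c x.1) = M c *ᵥ dec x.1 := by
      rw [← hact c hc x, dec_enc]
    have h2 : (L.val c) x = ⟨L.F c x.1, L.F_lt c hc x.1 x.2⟩ :=
      Fin.ext (L.val_apply hc x)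
    have h3 : psi ⟨M c, hM c hc⟩ x = decE.symm (M c *ᵥ dec x.1) := rfl
    rw [h2, h3, ← h1]
    have h4 : decE ⟨L.F c x.1, L.F_lt c hc x.1 x.2⟩ = dec (L.F c x.1) := rfl
    rw [← h4, Equiv.symm_apply_apply]
  have hrange : Nat.card psi.range = 979200 := by
    rw [← Nat.card_congr (MonoidHom.ofInjective psi_injective).toEquiv]
    exact card_Sp
  have heq : L.G = psi.range := by
    apply Subgroup.eq_of_le_of_card_ge hle
    rw [hcard, hrange]
  rw [heq]
  exact ⟨(MonoidHom.ofInjective psi_injective).symm⟩

end Cfsg.Agent.Lib.CosetCert.Sp4
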