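import Cfsg.Agent.Lib.CosetCert.Chain2
import Cfsg.Agent.Lib.TC.Chain

/-!
# Groups with common relators

Two groups generated by letters which satisfy the relators of a coset enumeration over a cyclic
subgroup: if the second group is simple of the full order then the first one is isomorphic to it.
The proof goes through the diagonal subgroup of the product.
-/

namespace Cfsg.Agent.Lib.CosetCert

open Equiv Cfsg.Agent.Lib.TC.Core Cfsg.Agent.Lib.TC.Pres

theorem prodA_flatten_replicate {Γ : Type*} [Group Γ] (E : ℕ → Γ) (u : List ℕ) (q : ℕ) :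
    prodA E (List.replicate q u).flatten = (prodA E u) ^ q := by
  induction q with
  | zero => simp
  | succ q ih =>
    rw [List.replicate_succ, List.flatten_cons, prodA_append, ih, pow_succ]

theorem prodA_flatMap {Γ : Type*} [Group Γ] (E : ℕ → Γ) (W : ℕ → List ℕ) (l : List ℕ) :
    prodA (fun c => prodA E (W c)) l = prodA E (l.flatMap W) := by
  induction l with
  | nil => rfl
  | cons z l ih =>
    rw [prodA_cons, List.flatMap_cons, prodA_append, ih]

theorem prodA_val {Γ : Type*} [Group Γ] (F : ℕ → Γ) (l : List ℕ) : prodA F l = ev F l := by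
  induction l with
  | nil => rfl
  | cons z l ih => rw [prodA_cons, ev_cons, ih]

theorem G_eq_closure {N : ℕ} (L : Letters N) : L.G = Subgroup.closure (L.val '' {c | c < L.k}) := by
  rw [Letters.G]
  congr 1
  ext g
  constructor
  · rintro ⟨l, hl, rfl⟩
    exact ⟨l, hl, rfl⟩
  · rintro ⟨l, hl, rfl⟩
    exact ⟨l, hl, rfl⟩

section Diag

variable {A B : Type*} [Group A] [Group B]

/-- The diagonal subgroup. -/
def diagGroup (a : ℕ → A) (b : ℕ → B) (k : ℕ) : Subgroup (A × B) :=
  Subgroup.closure ((fun c => (a c, b c)) '' {c | c < k})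

/-- The letters of the diagonal subgroup. -/
noncomputable def diagE (a : ℕ → A) (b : ℕ → B) (k : ℕ) (c : ℕ) : diagGroup a b k :=
  if h : c < k then ⟨(a c, b c), Subgroup.subset_closure ⟨c, h, rfl⟩⟩ else 1

theorem diagE_coe (a : ℕ → A) (b : ℕ → B) {k c : ℕ} (h : c < k) :
    ((diagE a b k c : diagGroup a b k) : A × B) = (a c, b c) := by
  simp [diagE, h]

theorem diagE_prodA (a : ℕ → A) (b : ℕ → B) {k : ℕ} {l : List ℕ} (hl : ∀ z ∈ l, z < k) :
    ((prodA (diagE a b k) l : diagGroup a b k) : A × B) = (prodA a l, prodA b l) := by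
  induction l with
  | nil => rfl
  | cons z l ih =>
    rw [prodA_cons, prodA_cons, prodA_cons, Subgroup.coe_mul, ih (fun y hy => hl y (by simp [hy])),
      diagE_coe a b (hl z (by simp))]
    rfl

theorem diagE_closure (a : ℕ → A) (b : ℕ → B) (k : ℕ) :
    Subgroup.closure (diagE a b k '' {c | c < k}) = ⊤ := by
  have h : diagE a b k '' {c | c < k} =
      ((↑) : diagGroup a b k → A × B) ⁻¹' ((fun c => (a c, b c)) '' {c | c < k}) := by
    ext x
    constructor
    · rintro ⟨c, hc, rfl⟩
      exact ⟨c, hc, (diagE_coe a b hc).symm⟩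
    · rintro ⟨c, hc, hx⟩
      refine ⟨c, hc, Subtype.ext ?_⟩
      rw [diagE_coe a b hc]
      exact hx
  rw [h]
  exact Subgroup.closure_closure_coe_preimage

/-- The isomorphism from common relators. -/
theorem exists_equiv_of_relators (a : ℕ → A) (b : ℕ → B) (k : ℕ)
    (hA : Subgroup.closure (a '' {c | c < k}) = ⊤)
    (hB : Subgroup.closure (b '' {c | c < k}) = ⊤)
    (C : Cert) (hk : C.k = k) (inv : ℕ → ℕ) (rels : List (List ℕ)) (u : List ℕ) (q : ℕ)
    (wit : ℕ → ℕ × ℕ × Bool)
    (hinvk : ∀ c, c < k → inv c < k)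
    (hinvA : ∀ c, c < k → a (inv c) = (a c)⁻¹)
    (hinvB : ∀ c, c < k → b (inv c) = (b c)⁻¹)
    (hrelk : ∀ l ∈ rels, ∀ z ∈ l, z < k)
    (hrelA : ∀ l ∈ rels, prodA a l = 1)
    (hrelB : ∀ l ∈ rels, prodA b l = 1)
    (huk : ∀ z ∈ u, z < k)
    (hu : (List.replicate q u).flatten ∈ rels)
    (h1 : chkRelRots C inv rels wit = true) (h2 : chkSubRots C [u] = true) (hC : Checked C)
    [IsSimpleGroup B] (hcardB : Nat.card B = C.countRoots C.N * q) (hq : q ≠ 0)
    (hne : ∃ c, c < k ∧ a c ≠ 1) :
    Nonempty (A ≃* B) := by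
  classical
  set D := diagGroup a b k with hD
  set E := diagE a b k with hE
  have hval : ∀ l, (∀ z ∈ l, z < k) → ((prodA E l : D) : A × B) = (prodA a l, prodA b l) :=
    fun l hl => diagE_prodA a b hl
  -- the subgroup
  set U : Subgroup D := Subgroup.zpowers (prodA E u) with hU
  have hupow : (prodA E u) ^ q = 1 := by
    rw [← prodA_flatten_replicate]
    apply Subtype.ext
    have hw : ∀ z ∈ (List.replicate q u).flatten, z < k := hrelk _ hu
    rw [hval _ hw, hrelA _ hu, hrelB _ hu]
    rfl
  have hindex := finite_index_of_cert (Γ := D) U E C inv rels [u] wit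
    (by
      intro c hc
      rw [hk] at hc
      refine ⟨by rw [hk]; exact hinvk c hc, Subtype.ext ?_⟩
      rw [InvMemClass.coe_inv, hE, diagE_coe a b (hinvk c hc), diagE_coe a b hc, hinvA c hc,
        hinvB c hc]
      rfl)
    (by
      rw [hk]
      exact diagE_closure a b k)
    (by
      intro l hl z hz
      rw [hk]
      exact hrelk l hl z hz)
    (by
      intro l hl
      apply Subtype.ext
      rw [hval l (hrelk l hl), hrelA l hl, hrelB l hl]
      rfl)
    (by
      intro l hl
      rw [List.mem_singleton] at hl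
      rw [hl]
      exact Subgroup.mem_zpowers _)
    h1 h2 hC
  have hoU : Nat.card U ∣ q := by
    rw [hU, Nat.card_zpowers]
    exact orderOf_dvd_of_pow_eq_one hupow
  have hU0 : Nat.card U ≠ 0 := fun h => hq (Nat.eq_zero_of_zero_dvd (h ▸ hoU))
  have hUle : Nat.card U ≤ q := Nat.le_of_dvd (Nat.pos_of_ne_zero hq) hoU
  have hmul := Subgroup.card_mul_index U
  have hDcard : Nat.card D ≠ 0 := by
    rw [← hmul]
    exact Nat.mul_ne_zero hU0 hindex.1
  have hDfin : Finite D := Nat.finite_of_card_ne_zero hDcard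
  have hDle : Nat.card D ≤ C.countRoots C.N * q := by
    rw [← hmul, mul_comm]
    exact Nat.mul_le_mul hindex.2 hUle
  -- the projections
  let pA : D →* A := (MonoidHom.fst A B).comp D.subtype
  let pB : D →* B := (MonoidHom.snd A B).comp D.subtype
  have hpA : Function.Surjective pA := by
    rw [← MonoidHom.range_eq_top, eq_top_iff, ← hA, Subgroup.closure_le]
    rintro _ ⟨c, hc, rfl⟩
    exact ⟨E c, by
      change (((E c : D) : A × B)).1 = a c
      rw [hE, diagE_coe a b hc]⟩
  have hpB : Function.Surjective pB := by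
    rw [← MonoidHom.range_eq_top, eq_top_iff, ← hB, Subgroup.closure_le]
    rintro _ ⟨c, hc, rfl⟩
    exact ⟨E c, by
      change (((E c : D) : A × B)).2 = b c
      rw [hE, diagE_coe a b hc]⟩
  have hBfin : Finite B := Finite.of_surjective _ hpB
  have hcardle := Nat.card_le_card_of_surjective _ hpB
  have hcardeq : Nat.card D = Nat.card B := by omega
  have hbijB := (Nat.bijective_iff_surjective_and_card pB).2 ⟨hpB, hcardeq⟩
  let eB : D ≃* B := MulEquiv.ofBijective pB hbijB
  haveI hDsimple : IsSimpleGroup D := eB.isSimpleGroup_congr.2 inferInstance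
  have hinjA : Function.Injective pA := by
    have hker := (inferInstance : pA.ker.Normal)
    rcases hker.eq_bot_or_eq_top with h | h
    · exact (MonoidHom.ker_eq_bot_iff pA).1 h
    · exfalso
      obtain ⟨c, hc, hne⟩ := hne
      apply hne
      have hmem : E c ∈ pA.ker := by rw [h]; trivial
      have h3 : pA (E c) = 1 := hmem
      have h4 : pA (E c) = a c := by
        change (((E c : D) : A × B)).1 = a c
        rw [hE, diagE_coe a b hc]
      rw [← h4, h3]
  let eA : D ≃* A := MulEquiv.ofBijective pA ⟨hinjA, hpA⟩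
  exact ⟨eA.symm.trans eB⟩

/-- A subgroup generated by letters in a group, whose letters satisfy relators which are also
satisfied by the letters of a permutation group which is simple of the full order. -/
theorem closure_equiv_of_relators {Γ : Type*} [Group Γ] (g : ℕ → Γ) {N : ℕ} (L : Letters N)
    (C : Cert) (hk : C.k = L.k) (rels : List (List ℕ)) (u : List ℕ) (q : ℕ)
    (wit : ℕ → ℕ × ℕ × Bool)
    (hinvG : ∀ c, c < L.k → g (L.inv c) = (g c)⁻¹)
    (hrelk : ∀ l ∈ rels, ∀ z ∈ l, z < L.k)
    (hrelG : ∀ l ∈ rels, prodA g l = 1)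
    (hrelL : ∀ l ∈ rels, ev L.val l = 1)
    (huk : ∀ z ∈ u, z < L.k)
    (hu : (List.replicate q u).flatten ∈ rels)
    (h1 : chkRelRots C L.inv rels wit = true) (h2 : chkSubRots C [u] = true) (hC : Checked C)
    [IsSimpleGroup L.G] (hcardB : Nat.card L.G = C.countRoots C.N * q) (hq : q ≠ 0)
    (hne : ∃ c, c < L.k ∧ g c ≠ 1) :
    Nonempty (Subgroup.closure (g '' {c | c < L.k}) ≃* L.G) := by
  classical
  set T := Subgroup.closure (g '' {c | c < L.k}) with hT
  let a : ℕ → T := fun c => if h : c < L.k then ⟨g c, Subgroup.subset_closure ⟨c, h, rfl⟩⟩ else 1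
  have ha : ∀ {c}, c < L.k → ((a c : T) : Γ) = g c := by
    intro c hc
    simp [a, hc]
  have haP : ∀ l, (∀ z ∈ l, z < L.k) → ((prodA a l : T) : Γ) = prodA g l := by
    intro l hl
    induction l with
    | nil => rfl
    | cons z l ih =>
      rw [prodA_cons, prodA_cons, Subgroup.coe_mul, ih (fun y hy => hl y (by simp [hy])),
        ha (hl z (by simp))]
  refine exists_equiv_of_relators a L.E L.k ?_ L.closure_E C hk L.inv rels u q wit L.inv_lt ?_ ?_
    hrelk ?_ ?_ huk hu h1 h2 hC hcardB hq ?_
  · have h : a '' {c | c < L.k} = ((↑) : T → Γ) ⁻¹' (g '' {c | c < L.k}) := by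
      ext x
      constructor
      · rintro ⟨c, hc, rfl⟩
        exact ⟨c, hc, (ha hc).symm⟩
      · rintro ⟨c, hc, hx⟩
        refine ⟨c, hc, Subtype.ext ?_⟩
        rw [ha hc]
        exact hx
    rw [h]
    exact Subgroup.closure_closure_coe_preimage
  · intro c hc
    apply Subtype.ext
    rw [InvMemClass.coe_inv, ha (L.inv_lt c hc), ha hc, hinvG c hc]
  · intro c hc
    apply Subtype.ext
    rw [InvMemClass.coe_inv, L.E_coe (L.inv_lt c hc), L.E_coe hc, L.val_inv hc]
  · intro l hl
    apply Subtype.ext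
    rw [haP l (hrelk l hl), hrelG l hl]
    rfl
  · intro l hl
    apply Subtype.ext
    rw [L.prodA_coe (hrelk l hl), hrelL l hl]
    rfl
  · obtain ⟨c, hc, hne⟩ := hne
    refine ⟨c, hc, fun h => hne ?_⟩
    rw [← ha hc, h]
    rfl

/-- The diagonal argument from a bound for the order of the diagonal subgroup. -/
theorem equiv_of_diag_card (a : ℕ → A) (b : ℕ → B) (k : ℕ)
    (hA : Subgroup.closure (a '' {c | c < k}) = ⊤)
    (hB : Subgroup.closure (b '' {c | c < k}) = ⊤)
    (hD0 : Nat.card (diagGroup a b k) ≠ 0) (hDle : Nat.card (diagGroup a b k) ≤ Nat.card B)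
    [IsSimpleGroup B] (hne : ∃ c, c < k ∧ a c ≠ 1) :
    Nonempty (A ≃* B) := by
  classical
  set D := diagGroup a b k with hD
  set E := diagE a b k with hE
  have hDfin : Finite D := Nat.finite_of_card_ne_zero hD0
  let pA : D →* A := (MonoidHom.fst A B).comp D.subtype
  let pB : D →* B := (MonoidHom.snd A B).comp D.subtype
  have hpA : Function.Surjective pA := by
    rw [← MonoidHom.range_eq_top, eq_top_iff, ← hA, Subgroup.closure_le]
    rintro _ ⟨c, hc, rfl⟩
    exact ⟨E c, by
      change (((E c : D) : A × B)).1 = a c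
      rw [hE, diagE_coe a b hc]⟩
  have hpB : Function.Surjective pB := by
    rw [← MonoidHom.range_eq_top, eq_top_iff, ← hB, Subgroup.closure_le]
    rintro _ ⟨c, hc, rfl⟩
    exact ⟨E c, by
      change (((E c : D) : A × B)).2 = b c
      rw [hE, diagE_coe a b hc]⟩
  have hBfin : Finite B := Finite.of_surjective _ hpB
  have hcardle := Nat.card_le_card_of_surjective _ hpB
  have hcardeq : Nat.card D = Nat.card B := by omega
  have hbijB := (Nat.bijective_iff_surjective_and_card pB).2 ⟨hpB, hcardeq⟩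
  let eB : D ≃* B := MulEquiv.ofBijective pB hbijB
  have hDsimple : IsSimpleGroup D := eB.isSimpleGroup_congr.2 inferInstance
  have hinjA : Function.Injective pA := by
    have hker := (inferInstance : pA.ker.Normal)
    rcases hker.eq_bot_or_eq_top with h | h
    · exact (MonoidHom.ker_eq_bot_iff pA).1 h
    · exfalso
      obtain ⟨c, hc, hne⟩ := hne
      apply hne
      have hmem : E c ∈ pA.ker := by rw [h]; trivial
      have h3 : pA (E c) = 1 := hmem
      have h4 : pA (E c) = a c := by
        change (((E c : D) : A × B)).1 = a c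
        rw [hE, diagE_coe a b hc]
      rw [← h4, h3]
  let eA : D ≃* A := MulEquiv.ofBijective pA ⟨hinjA, hpA⟩
  exact ⟨eA.symm.trans eB⟩

end Diag

section Chain

open Cfsg.Agent.Lib.TC.Chain

/-- A subgroup generated by letters with the relators of a chain of coset enumerations (valid for all
groups) is isomorphic to a simple permutation group of the full order. -/
theorem closure_equiv_of_chain {Γ : Type} [Group Γ] (g : ℕ → Γ) {N : ℕ} (L : Letters N)
    (ls0 : List ℕ) (hls0 : ∀ c, c ∈ ls0 ↔ c < L.k) (B : ℕ) (rels : List (List ℕ))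
    (bound : ∀ {Δ : Type} [Group Δ] (E : ℕ → Δ), (∀ c ∈ ls0, E (L.inv c) = (E c)⁻¹) →
      (∀ l ∈ rels, prodA E l = 1) → Nat.card (Lt E ls0) ≠ 0 ∧ Nat.card (Lt E ls0) ≤ B)
    (hinvG : ∀ c, c < L.k → g (L.inv c) = (g c)⁻¹)
    (hrelk : ∀ l ∈ rels, ∀ z ∈ l, z < L.k)
    (hrelG : ∀ l ∈ rels, prodA g l = 1)
    (hrelL : ∀ l ∈ rels, ev L.val l = 1)
    [IsSimpleGroup L.G] (hcardB : Nat.card L.G = B)
    (hne : ∃ c, c < L.k ∧ g c ≠ 1) :
    Nonempty (Subgroup.closure (g '' {c | c < L.k}) ≃* L.G) := by
  classical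
  set T := Subgroup.closure (g '' {c | c < L.k}) with hT
  let a : ℕ → T := fun c => if h : c < L.k then ⟨g c, Subgroup.subset_closure ⟨c, h, rfl⟩⟩ else 1
  have ha : ∀ {c}, c < L.k → ((a c : T) : Γ) = g c := by
    intro c hc
    simp [a, hc]
  have haP : ∀ l, (∀ z ∈ l, z < L.k) → ((prodA a l : T) : Γ) = prodA g l := by
    intro l hl
    induction l with
    | nil => rfl
    | cons z l ih =>
      rw [prodA_cons, prodA_cons, Subgroup.coe_mul, ih (fun y hy => hl y (by simp [hy])),
        ha (hl z (by simp))]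
  have hcl : Subgroup.closure (a '' {c | c < L.k}) = ⊤ := by
    have h : a '' {c | c < L.k} = ((↑) : T → Γ) ⁻¹' (g '' {c | c < L.k}) := by
      ext x
      constructor
      · rintro ⟨c, hc, rfl⟩
        exact ⟨c, hc, (ha hc).symm⟩
      · rintro ⟨c, hc, hx⟩
        refine ⟨c, hc, Subtype.ext ?_⟩
        rw [ha hc]
        exact hx
    rw [h]
    exact Subgroup.closure_closure_coe_preimage
  -- the order of the diagonal subgroup
  set D := diagGroup a L.E L.k with hD
  set E := diagE a L.E L.k with hE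
  have hval : ∀ l, (∀ z ∈ l, z < L.k) → ((prodA E l : D) : T × L.G) = (prodA a l, prodA L.E l) :=
    fun l hl => diagE_prodA a L.E hl
  have hlt : Lt E ls0 = ⊤ := by
    have h1 : E '' {c | c ∈ ls0} = E '' {c | c < L.k} := by
      congr 1
      ext c
      exact hls0 c
    rw [Lt, h1]
    exact diagE_closure a L.E L.k
  have hb := bound E
    (by
      intro c hc
      have hc' := (hls0 c).1 hc
      apply Subtype.ext
      rw [InvMemClass.coe_inv, hE, diagE_coe a L.E (L.inv_lt c hc'), diagE_coe a L.E hc']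
      refine Prod.ext (Subtype.ext ?_) (Subtype.ext ?_)
      · change ((a (L.inv c) : T) : Γ) = ((a c : T) : Γ)⁻¹
        rw [ha (L.inv_lt c hc'), ha hc', hinvG c hc']
      · change ((L.E (L.inv c) : L.G) : Perm (Fin N)) = ((L.E c : L.G) : Perm (Fin N))⁻¹
        rw [L.E_coe (L.inv_lt c hc'), L.E_coe hc', L.val_inv hc'])
    (by
      intro l hl
      apply Subtype.ext
      rw [hval l (hrelk l hl)]
      refine Prod.ext (Subtype.ext ?_) (Subtype.ext ?_)
      · change ((prodA a l : T) : Γ) = 1
        rw [haP l (hrelk l hl), hrelG l hl]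
      · change ((prodA L.E l : L.G) : Perm (Fin N)) = 1
        rw [L.prodA_coe (hrelk l hl), hrelL l hl])
  rw [hlt, Subgroup.card_top] at hb
  refine equiv_of_diag_card a L.E L.k hcl L.closure_E hb.1 (by rw [hcardB]; exact hb.2) ?_
  obtain ⟨c, hc, hne⟩ := hne
  refine ⟨c, hc, fun h => hne ?_⟩
  rw [← ha hc, h]
  rfl

end Chain

end Cfsg.Agent.Lib.CosetCert
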